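import Cfsg.Agent.H993.RC.TwoBFinal
import Cfsg.Agent.H452.RC.GDecMain
import Cfsg.Agent.H579.RC.CaseTwo

/-!
# S3510, box E10: `CaseTwo` (case A: helper579, case B: helper993)
-/

set_option autoImplicit false

namespace Cfsg.Agent.H993.RC

/-- **Box E10** -/
theorem case_two_main : Cfsg.Agent.H380.RC.CaseTwo :=
  Cfsg.Agent.H579.RC.caseTwo_of Cfsg.Agent.H452.RC.dec_main Cfsg.Agent.H452.RC.gdec_main
    Cfsg.Agent.H906.RC.small_stmt two_b

end Cfsg.Agent.H993.RC
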